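import Cfsg.Agent.Comp.M12x.Data

set_option autoImplicit false
set_option maxRecDepth 100000
set_option Elab.async false

namespace Cfsg.Agent.Comp.M12x

theorem s0 : allR J.slpAt 0 21 = true := by decide +kernel
theorem l4 : J.lvlAt L4 [] = true := by decide +kernel
theorem q4_0 : allR (schChk J.E L4 [] J.AB h4 (nat_lit 1) (nat_lit 1)) 0 8 = true := by decide +kernel
theorem l3 : J.lvlAt L3 [L4] = true := by decide +kernel
theorem q3_0 : allR (schChk J.E L3 [L4] J.AB h3 (nat_lit 8) (nat_lit 255)) 0 9 = true := by decide +kernel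
theorem l2 : J.lvlAt L2 [L3, L4] = true := by decide +kernel
theorem q2_0 : allR (schChk J.E L2 [L3, L4] J.AB h2 (nat_lit 16) (nat_lit 65535)) 0 10 = true := by decide +kernel
theorem l1 : J.lvlAt L1 [L2, L3, L4] = true := by decide +kernel
theorem q1_0 : allR (schChk J.E L1 [L2, L3, L4] J.AB h1 (nat_lit 24) (nat_lit 16777215)) 0 11 = true := by decide +kernel
theorem l0 : J.lvlAt L0 [L1, L2, L3, L4] = true := by decide +kernel
theorem q0_0 : allR (schChk J.E L0 [L1, L2, L3, L4] J.AB h0 (nat_lit 32) (nat_lit 4294967295)) 0 12 = true := by decide +kernel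

end Cfsg.Agent.Comp.M12x
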