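import Cfsg.Agent.Comp.M12x.Chk0

set_option autoImplicit false
set_option maxRecDepth 100000
set_option Elab.async false

namespace Cfsg.Agent.Comp.M12x

theorem hs : ∀ j, j < J.N' → J.slpAt j = true := (range_step (lo := 0) 21 range_start s0)

theorem chain5 {Γ X : Type*} [Group Γ] [MulAction Γ X] {T : Lst X J.n} {gen : ℕ → Γ} {A : Subgroup Γ} (h : J.Model T gen A) : ChainOK h.M J.E (J.el gen) [] := trivial

theorem chain4 {Γ X : Type*} [Group Γ] [MulAction Γ X] {T : Lst X J.n} {gen : ℕ → Γ} {A : Subgroup Γ} (h : J.Model T gen A) : ChainOK h.M J.E (J.el gen) [L4] :=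
  h.chain_cons hs (chain5 h) l4 (range_step (lo := 0) 8 range_start q4_0)

theorem chain3 {Γ X : Type*} [Group Γ] [MulAction Γ X] {T : Lst X J.n} {gen : ℕ → Γ} {A : Subgroup Γ} (h : J.Model T gen A) : ChainOK h.M J.E (J.el gen) [L3, L4] :=
  h.chain_cons hs (chain4 h) l3 (range_step (lo := 0) 9 range_start q3_0)

theorem chain2 {Γ X : Type*} [Group Γ] [MulAction Γ X] {T : Lst X J.n} {gen : ℕ → Γ} {A : Subgroup Γ} (h : J.Model T gen A) : ChainOK h.M J.E (J.el gen) [L2, L3, L4] :=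
  h.chain_cons hs (chain3 h) l2 (range_step (lo := 0) 10 range_start q2_0)

theorem chain1 {Γ X : Type*} [Group Γ] [MulAction Γ X] {T : Lst X J.n} {gen : ℕ → Γ} {A : Subgroup Γ} (h : J.Model T gen A) : ChainOK h.M J.E (J.el gen) [L1, L2, L3, L4] :=
  h.chain_cons hs (chain2 h) l1 (range_step (lo := 0) 11 range_start q1_0)

theorem chain0 {Γ X : Type*} [Group Γ] [MulAction Γ X] {T : Lst X J.n} {gen : ℕ → Γ} {A : Subgroup Γ} (h : J.Model T gen A) : ChainOK h.M J.E (J.el gen) [L0, L1, L2, L3, L4] :=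
  h.chain_cons hs (chain1 h) l0 (range_step (lo := 0) 12 range_start q0_0)

theorem GpL_eq {Γ : Type*} [Group Γ] (gen : ℕ → Γ) : GpL (J.el gen) [L0, L1, L2, L3, L4] = J.G gen := Job.GpL_top rfl rfl

theorem card {Γ X : Type*} [Group Γ] [MulAction Γ X] {T : Lst X J.n} {gen : ℕ → Γ} {A : Subgroup Γ} (h : J.Model T gen A) : Nat.card (J.G gen) = 95040 := by
  rw [← GpL_eq, (chain0 h).card]; rfl

theorem finite {Γ X : Type*} [Group Γ] [MulAction Γ X] {T : Lst X J.n} {gen : ℕ → Γ} {A : Subgroup Γ} (h : J.Model T gen A) : Finite (J.G gen) := by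
  rw [← GpL_eq]; exact (chain0 h).finite

end Cfsg.Agent.Comp.M12x
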